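import Cfsg.Agent.Lib.IsaacsPassman.Basic
import Mathlib.GroupTheory.FiniteAbelian.Duality
import Mathlib.RingTheory.RootsOfUnity.AlgebraicallyClosed
import Mathlib.GroupTheory.PGroup

/-!
# Minimal nonabelian quotient with noncentral abelian derived subgroup
-/

set_option autoImplicit false
set_option linter.unusedSectionVars false

namespace Cfsg.Agent.Lib.IsaacsPassman

open Cfsg Cfsg.Agent.Lib.Char
open scoped ComplexConjugate commutatorElement

universe u

section Structure

variable {Q : Type u} [Group Q] [Finite Q]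

theorem commutator_conj_mem (y n : Q) (hn : n ∈ commutator Q) :
    y * n * y⁻¹ ∈ commutator Q :=
  (inferInstance : (commutator Q).Normal).conj_mem n hn y

/-- An element not centralising the abelian derived subgroup acts on it without fixed points,
and its commutators fill it. -/
theorem action_fixed_point_free
    (hmin : ∀ L : Subgroup Q, L.Normal → L ≠ ⊥ → commutator Q ≤ L)
    (hab : ∀ a ∈ commutator Q, ∀ c ∈ commutator Q, a * c = c * a)
    {y : Q} (hy : y ∉ Subgroup.centralizer (commutator Q : Set Q)) :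
    (∀ e ∈ commutator Q, ∃ n ∈ commutator Q, y * n * y⁻¹ * n⁻¹ = e) ∧
      ∀ n ∈ commutator Q, y * n = n * y → n = 1 := by
  classical
  let φ : commutator Q →* commutator Q :=
    { toFun := fun n => ⟨y * n * y⁻¹ * (n : Q)⁻¹,
        mul_mem (commutator_conj_mem y n n.2) (inv_mem n.2)⟩
      map_one' := Subtype.ext (by simp)
      map_mul' := fun n m => Subtype.ext (by
        simp only [Subgroup.coe_mul]
        have h1 := hab _ (inv_mem n.2) _
          (mul_mem (commutator_conj_mem y m m.2) (inv_mem m.2))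
        calc y * ((n : Q) * m) * y⁻¹ * ((n : Q) * m)⁻¹
            = y * n * y⁻¹ * ((y * m * y⁻¹ * (m : Q)⁻¹) * (n : Q)⁻¹) := by group
          _ = y * n * y⁻¹ * ((n : Q)⁻¹ * (y * m * y⁻¹ * (m : Q)⁻¹)) := by rw [h1]
          _ = y * n * y⁻¹ * (n : Q)⁻¹ * (y * m * y⁻¹ * (m : Q)⁻¹) := by group) }
  let S : Subgroup Q := φ.range.map (commutator Q).subtype
  have hSN : S ≤ commutator Q := Subgroup.map_subtype_le _
  have hSn : S.Normal := ⟨by
    rintro _ ⟨_, ⟨n, rfl⟩, rfl⟩ g
    refine ⟨φ ⟨g * n * g⁻¹, commutator_conj_mem g n n.2⟩, ⟨_, rfl⟩, ?_⟩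
    show y * (g * n * g⁻¹) * y⁻¹ * (g * n * g⁻¹)⁻¹ = g * (y * n * y⁻¹ * (n : Q)⁻¹) * g⁻¹
    have hc : g * y * g⁻¹ * y⁻¹ ∈ commutator Q := by
      rw [commutator_def]
      exact Subgroup.commutator_mem_commutator (Subgroup.mem_top g) (Subgroup.mem_top y)
    have h1 := hab _ hc _ (commutator_conj_mem y _ (commutator_conj_mem g n n.2))
    calc y * (g * n * g⁻¹) * y⁻¹ * (g * n * g⁻¹)⁻¹
        = (y * (g * n * g⁻¹) * y⁻¹ * (g * y * g⁻¹ * y⁻¹)) * (g * y * g⁻¹ * y⁻¹)⁻¹ *
            (g * n * g⁻¹)⁻¹ := by group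
      _ = ((g * y * g⁻¹ * y⁻¹) * (y * (g * n * g⁻¹) * y⁻¹)) * (g * y * g⁻¹ * y⁻¹)⁻¹ *
            (g * n * g⁻¹)⁻¹ := by rw [h1]
      _ = g * (y * n * y⁻¹ * (n : Q)⁻¹) * g⁻¹ := by group⟩
  have hS0 : S ≠ ⊥ := by
    intro h
    apply hy
    rw [Subgroup.mem_centralizer_iff]
    intro n hn
    have h1 : ((φ ⟨n, hn⟩ : commutator Q) : Q) ∈ S := ⟨φ ⟨n, hn⟩, ⟨_, rfl⟩, rfl⟩
    rw [h, Subgroup.mem_bot] at h1
    change y * n * y⁻¹ * n⁻¹ = 1 at h1
    rw [mul_inv_eq_one, mul_inv_eq_iff_eq_mul] at h1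
    exact h1.symm
  have hsurj : Function.Surjective φ := by
    intro e
    obtain ⟨_, ⟨n, rfl⟩, he⟩ := hmin S hSn hS0 e.2
    exact ⟨n, Subtype.ext he⟩
  have hinj : Function.Injective φ := Finite.injective_iff_surjective.2 hsurj
  refine ⟨fun e he => ?_, fun n hn h => ?_⟩
  · obtain ⟨n, hn⟩ := hsurj ⟨e, he⟩
    exact ⟨n, n.2, congrArg Subtype.val hn⟩
  · have : φ ⟨n, hn⟩ = φ 1 := by
      rw [map_one]
      refine Subtype.ext ?_
      show y * n * y⁻¹ * n⁻¹ = 1
      rw [h]
      group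
    exact congrArg Subtype.val (hinj this)

/-- The derived subgroup is its own centralizer. -/
theorem centralizer_derived_eq
    (hmin : ∀ L : Subgroup Q, L.Normal → L ≠ ⊥ → commutator Q ≤ L)
    (hab : ∀ a ∈ commutator Q, ∀ c ∈ commutator Q, a * c = c * a)
    (hcl : ¬ commutator Q ≤ Subgroup.center Q) :
    Subgroup.centralizer (commutator Q : Set Q) = commutator Q := by
  refine le_antisymm (fun c hc => ?_)
    fun a ha => Subgroup.mem_centralizer_iff.2 fun n hn => hab n hn a ha
  obtain ⟨y, hy⟩ : ∃ y, y ∉ Subgroup.centralizer (commutator Q : Set Q) := by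
    by_contra h
    push Not at h
    exact hcl fun n hn => Subgroup.mem_center_iff.2 fun x =>
      (Subgroup.mem_centralizer_iff.1 (h x) n hn).symm
  obtain ⟨hsurj, hfix⟩ := action_fixed_point_free hmin hab hy
  obtain ⟨n, hn, hne⟩ := hsurj (y * c * y⁻¹ * c⁻¹) (by
    rw [commutator_def]
    exact Subgroup.commutator_mem_commutator (Subgroup.mem_top y) (Subgroup.mem_top c))
  set d := n⁻¹ * c with hddef
  have hdy : y * d * y⁻¹ = d := by
    calc y * (n⁻¹ * c) * y⁻¹ = (y * n⁻¹ * y⁻¹) * ((y * c * y⁻¹ * c⁻¹) * c) := by group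
      _ = (y * n⁻¹ * y⁻¹) * ((y * n * y⁻¹ * n⁻¹) * c) := by rw [hne]
      _ = n⁻¹ * c := by group
  have hdC : ∀ m ∈ commutator Q, m * d = d * m := fun m hm => by
    rw [hddef, ← mul_assoc, hab m hm _ (inv_mem hn), mul_assoc,
      Subgroup.mem_centralizer_iff.1 hc m hm, mul_assoc]
  have hd : d = 1 := by
    have hcen : d ∈ Subgroup.center Q := Subgroup.mem_center_iff.2 fun g => by
      set e := g * d * g⁻¹ * d⁻¹ with hedef
      have heN : e ∈ commutator Q := by
        rw [commutator_def]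
        exact Subgroup.commutator_mem_commutator (Subgroup.mem_top g) (Subgroup.mem_top d)
      set k := y * g * y⁻¹ * g⁻¹ with hkdef
      have hk : k ∈ commutator Q := by
        rw [commutator_def]
        exact Subgroup.commutator_mem_commutator (Subgroup.mem_top y) (Subgroup.mem_top g)
      have hfixed : y * e * y⁻¹ = e := by
        calc y * (g * d * g⁻¹ * d⁻¹) * y⁻¹
            = (y * g * y⁻¹) * (y * d * y⁻¹) * (y * g * y⁻¹)⁻¹ * (y * d * y⁻¹)⁻¹ := by group
          _ = (k * g) * d * (k * g)⁻¹ * d⁻¹ := by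
              rw [hdy, show y * g * y⁻¹ = k * g by rw [hkdef]; group]
          _ = k * (g * d * g⁻¹ * d⁻¹) * (d * k⁻¹) * d⁻¹ := by group
          _ = k * e * (k⁻¹ * d) * d⁻¹ := by rw [hdC _ (inv_mem hk)]
          _ = (k * e) * k⁻¹ := by group
          _ = (e * k) * k⁻¹ := by rw [hab k hk e heN]
          _ = e := by group
      have := hfix e heN (mul_inv_eq_iff_eq_mul.1 hfixed)
      rw [hedef, mul_inv_eq_one, mul_inv_eq_iff_eq_mul] at this
      exact this
    by_contra hd1
    exact hcl (hmin _ inferInstance fun h => hd1 (by rwa [h, Subgroup.mem_bot] at hcen))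
  rw [hddef, inv_mul_eq_one] at hd
  rwa [← hd]

end Structure

variable {G : Type u} [Group G] [Finite G] {b : ℕ}

/-- Restrictions to a subgroup: the inner square of the restriction of an irreducible character
vanishing off a subgroup. -/
theorem classInner_restrict_of_support [Fintype G] (K M : Subgroup G) [Fintype K] [Fintype M]
    (hKM : K ≤ M) (ψ : G → ℂ) (hM : classInner (fun m : M => ψ m) (fun m : M => ψ m) = 1)
    (hz : ∀ m ∈ M, m ∉ K → ψ m = 0) :
    classInner (fun k : K => ψ k) (fun k : K => ψ k) = (Nat.card M : ℂ) / (Nat.card K : ℂ) := by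
  classical
  rw [classInner, inv_mul_eq_one₀ (card_ne_zero_complex M),
    sum_subgroup M (fun g => ψ g * conj (ψ g))] at hM
  rw [classInner, sum_subgroup K (fun g => ψ g * conj (ψ g)), hM, mul_comm, ← div_eq_mul_inv]
  congr 1
  refine Finset.sum_congr rfl fun g _ => ?_
  by_cases hg : g ∈ K
  · rw [if_pos hg, if_pos (hKM hg)]
  · rw [if_neg hg]
    split_ifs with hgM
    · rw [hz g hgM hg, zero_mul]
    · rfl

/-- The reduction when the derived subgroup of `G ⧸ K` is abelian but not central. -/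
theorem reduction_abelian (hb : DegLE G b) (K : Subgroup G) [K.Normal]
    (hK : ¬ commutator G ≤ K)
    (hne : ¬ ∀ a c : G ⧸ K, a * c = c * a)
    (hmin : ∀ L : Subgroup (G ⧸ K), L.Normal → L ≠ ⊥ → commutator (G ⧸ K) ≤ L)
    (hab : ∀ a ∈ commutator (G ⧸ K), ∀ c ∈ commutator (G ⧸ K), a * c = c * a)
    (hcl : ¬ commutator (G ⧸ K) ≤ Subgroup.center (G ⧸ K)) : Reduction G b := by
  classical
  have := Fintype.ofFinite G
  set Q := G ⧸ K
  set π := QuotientGroup.mk' K with hπdef
  have hπ : Function.Surjective π := QuotientGroup.mk'_surjective K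
  set N := commutator Q with hNdef
  set M : Subgroup G := N.comap π with hMdef
  have := Fintype.ofFinite M
  have := Fintype.ofFinite K
  have hKM : K ≤ M := fun k hk => by
    rw [hMdef, Subgroup.mem_comap, hπdef, QuotientGroup.mk'_apply,
      (QuotientGroup.eq_one_iff k).2 hk]
    exact one_mem _
  have hCeq := centralizer_derived_eq hmin hab hcl
  have hN0 : N ≠ ⊥ := fun h => hcl (h ▸ bot_le)
  obtain ⟨a, haN, ha1⟩ := (Subgroup.ne_bot_iff_exists_ne_one.1 hN0).elim
    fun a ha => (⟨a.1, a.2, fun e => ha (Subtype.ext e)⟩ : ∃ a, a ∈ N ∧ a ≠ 1)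
  -- a nontrivial linear character of the derived subgroup
  obtain ⟨l, hl⟩ : ∃ l : N →* ℂˣ, l ⟨a, haN⟩ ≠ 1 := by
    letI : CommGroup N :=
      { (inferInstance : Group N) with mul_comm := fun p q => Subtype.ext (hab p p.2 q q.2) }
    exact CommGroup.exists_apply_ne_one_of_hasEnoughRootsOfUnity N ℂ
      (fun e => ha1 (congrArg Subtype.val e))
  let πM : M →* N := (π.comp M.subtype).codRestrict N fun m => m.2
  -- twisting makes the characters induce irreducibly
  have key : ∀ ψ : IrrCharacter G, IsIrrCharacter M (fun m : M => (ψ : G → ℂ) m) →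
      (∃ n₀, n₀ ∈ M ∧ n₀ ∉ K ∧ (ψ : G → ℂ) n₀ ≠ 0) →
      M.index * charDegree (ψ : G → ℂ) ≤ b := by
    intro ψ hψM hn₀
    obtain ⟨n₀, hn₀M, hn₀K, hn₀ψ⟩ := hn₀
    set Ψ : M → ℂ := fun m => ((l.comp πM) m : ℂ) * (ψ : G → ℂ) m with hΨdef
    have hΨ : IsIrrCharacter M Ψ := isIrrCharacter_linear_mul hψM (l.comp πM)
    have hI : inertia M Ψ = M := by
      refine le_antisymm (fun x hx => ?_) (le_inertia M (isClassFunction_of_isIrr hΨ))
      by_contra hxM
      have hxC : π x ∉ Subgroup.centralizer (N : Set Q) := by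
        rw [hCeq]; exact hxM
      obtain ⟨hsurj, -⟩ := action_fixed_point_free hmin hab hxC
      let c : N →* N :=
        { toFun := fun u => ⟨π x * u * (π x)⁻¹, commutator_conj_mem (π x) u u.2⟩
          map_one' := Subtype.ext (by simp)
          map_mul' := fun u v => Subtype.ext (by simp [mul_assoc]) }
      let S : Subgroup Q := (MonoidHom.eqLocus (l.comp c) l).map N.subtype
      have hS : Subgroup.normalClosure (π '' {n | n ∈ M ∧ (ψ : G → ℂ) n ≠ 0}) ≤ S := by
        refine (Subgroup.closure_le S).2 fun z hz => ?_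
        obtain ⟨_, ⟨n, ⟨hnM, hnψ⟩, rfl⟩, hconj⟩ := Group.mem_conjugatesOfSet_iff.1 hz
        obtain ⟨q, hq⟩ := isConj_iff.1 hconj
        obtain ⟨g, rfl⟩ := hπ q
        set m : G := g * n * g⁻¹ with hmdef
        have hmM : m ∈ M := (inferInstance : M.Normal).conj_mem n hnM g
        have hmψ : (ψ : G → ℂ) m ≠ 0 := by
          rw [hmdef, isClassFunction_of_isIrr ψ.2 n g]; exact hnψ
        have hzm : z = π m := by rw [← hq, hmdef, map_mul, map_mul, map_inv]
        refine ⟨⟨π m, hmM⟩, ?_, hzm.symm⟩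
        show l (c ⟨π m, hmM⟩) = l ⟨π m, hmM⟩
        have h := congrFun hx ⟨m, hmM⟩
        simp only [conjChar_apply, hΨdef] at h
        rw [isClassFunction_of_isIrr ψ.2 m x] at h
        have h2 := Units.ext (mul_right_cancel₀ hmψ h)
        have hc : c ⟨π m, hmM⟩ =
            πM ⟨x * m * x⁻¹, (inferInstance : M.Normal).conj_mem m hmM x⟩ := Subtype.ext (by
          show π x * π m * (π x)⁻¹ = π (x * m * x⁻¹)
          simp)
        rw [hc]
        exact h2
      have hNS : N ≤ S := (hmin _ Subgroup.normalClosure_normal fun h => hn₀K (by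
        have hm : π n₀ ∈ Subgroup.normalClosure (π '' {n | n ∈ M ∧ (ψ : G → ℂ) n ≠ 0}) :=
          Subgroup.subset_normalClosure ⟨n₀, ⟨hn₀M, hn₀ψ⟩, rfl⟩
        rw [h, Subgroup.mem_bot] at hm
        exact (QuotientGroup.eq_one_iff n₀).1 hm)).trans hS
      apply hl
      obtain ⟨u, hu, hue⟩ := hsurj a haN
      obtain ⟨u', hu', hu'e⟩ := hNS hu
      have hu'' : u' = ⟨u, hu⟩ := Subtype.ext hu'e
      subst hu''
      have h1 : (⟨a, haN⟩ : N) = c ⟨u, hu⟩ * (⟨u, hu⟩ : N)⁻¹ := Subtype.ext hue.symm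
      rw [h1, map_mul, map_inv, show l (c ⟨u, hu⟩) = l ⟨u, hu⟩ from hu', mul_inv_cancel]
    have hind : IsIrrCharacter G (indFun M Ψ) := isIrrCharacter_indFun M hΨ hI
    have h := hb ⟨_, hind⟩
    rw [charDegree_indFun M (isCharacter_of_isIrr hΨ),
      charDegree_eq_of_apply_one (χ := Ψ) (n := charDegree (ψ : G → ℂ))
        (by simp [hΨdef, apply_one_deg])] at h
    exact h
  have hfb : M.index ≤ b := by
    obtain ⟨g, hg⟩ := hπ a
    have h := key ⟨fun _ => 1, isIrrCharacter_one⟩ isIrrCharacter_one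
      ⟨g, by rw [hMdef, Subgroup.mem_comap, hg]; exact haN, fun hgK => ha1 (by
        rw [← hg]; exact (QuotientGroup.eq_one_iff g).2 hgK), one_ne_zero⟩
    simpa [charDegree_one] using h
  have hf2 : 2 ≤ M.index := by
    rw [hMdef, Subgroup.index_comap_of_surjective _ hπ]
    refine Subgroup.one_lt_index_of_ne_top fun h => hne fun p q => ?_
    exact hab p (h ▸ Subgroup.mem_top p) q (h ▸ Subgroup.mem_top q)
  by_cases hM : DegLE M (b - 1)
  · exact ⟨M, b - 1, by omega, hM, budget_one (by omega)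
      (hfb.trans (Nat.le_self_pow two_ne_zero b))⟩
  rw [DegLE, not_forall] at hM
  obtain ⟨θ, hθ⟩ := hM
  obtain ⟨ψ, hψ⟩ := exists_irr_over M θ.2
  have hψM := restrict_eq_of_degree_le M ψ θ hψ (by have := hb ψ; omega)
  have hψb : charDegree (ψ : G → ℂ) = b := by
    have := hb ψ
    have := degree_le_of_over M ψ θ hψ
    omega
  have hz : ∀ m ∈ M, m ∉ K → (ψ : G → ℂ) m = 0 := by
    intro m hm hmK
    by_contra h0
    have h := key ψ (hψM ▸ θ.2) ⟨m, hm, hmK, h0⟩
    rw [hψb] at h
    have := Nat.mul_le_mul_right b hf2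
    omega
  -- the inner square on `K` is the order of the derived subgroup
  have hcard : Nat.card M = Nat.card N * Nat.card K := by
    have h1 := M.card_mul_index
    have h2 := N.card_mul_index
    have h3 : Nat.card Q * Nat.card K = Nat.card G :=
      (Subgroup.card_eq_card_quotient_mul_card_subgroup K).symm
    rw [hMdef, Subgroup.index_comap_of_surjective _ hπ, ← hMdef, ← h3, ← h2] at h1
    refine Nat.eq_of_mul_eq_mul_right (Nat.pos_of_ne_zero N.index_ne_zero_of_finite) (h1.trans ?_)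
    ring
  have hu := classInner_restrict_of_support K M hKM (ψ : G → ℂ)
    (by rw [hψM]; exact classInner_irr_self θ.2) hz
  rw [hcard, Nat.cast_mul, mul_div_assoc, div_self (card_ne_zero_complex K), mul_one] at hu
  obtain ⟨ξ, hξ⟩ := exists_constituent (isCharacter_restrict (isCharacter_of_isIrr ψ.2) K)
    fun h => apply_one_ne ψ (by simpa using congrFun h 1)
  have hcliff := clifford K ψ.2 ξ.2 hξ
  have hdeg := clifford_degree K ψ.2 ξ.2 hξ
  obtain ⟨m, hm⟩ := classInner_natCast (isCharacter_restrict (isCharacter_of_isIrr ψ.2) K)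
    (isCharacter_of_isIrr ξ.2)
  have hmem : ∀ ζ ∈ orbit K (ξ : K → ℂ),
      classInner ζ (fun k : K => (ψ : G → ℂ) k) = (m : ℂ) := by
    intro ζ hζ
    obtain ⟨g, rfl⟩ := (mem_orbit K).1 hζ
    rw [← conjChar_restrict K (isClassFunction_of_isIrr ψ.2) g, classInner_conjChar,
      classInner_conj_symm, hm, Complex.conj_natCast]
  have hinner : classInner (fun k : K => (ψ : G → ℂ) k) (fun k : K => (ψ : G → ℂ) k) =
      (m : ℂ) * (((inertia K (ξ : K → ℂ)).index : ℂ) * (m : ℂ)) := by
    conv_lhs => arg 1; rw [hcliff]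
    rw [classInner_smul_left, hm, classInner_sum_left, Finset.sum_congr rfl hmem,
      Finset.sum_const, nsmul_eq_mul, card_orbit K _ (irr_degree_ne_zero ξ.2)]
  rw [hu] at hinner
  rw [hm, apply_one_deg, hψb, apply_one_deg] at hdeg
  have hq : Nat.card N = m * ((inertia K (ξ : K → ℂ)).index * m) := by exact_mod_cast hinner
  have hdeg' : b = m * (inertia K (ξ : K → ℂ)).index * charDegree (ξ : K → ℂ) := by
    exact_mod_cast hdeg
  have hdvd : Nat.card N ∣ b ^ 2 :=
    ⟨(inertia K (ξ : K → ℂ)).index * charDegree (ξ : K → ℂ) ^ 2, by rw [hq, hdeg']; ring⟩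
  have hb0 : 0 < b := by omega
  rcases Nat.lt_or_ge b 3 with hb3 | hb3
  · -- the quotient would be a 2-group
    exfalso
    have hb2 : b = 2 := by omega
    subst hb2
    have hQ : Nat.card Q = Nat.card N * 2 := by
      rw [← N.card_mul_index]
      congr 1
      rw [hMdef, Subgroup.index_comap_of_surjective _ hπ] at hfb hf2
      omega
    obtain ⟨j, -, hj⟩ := (Nat.dvd_prime_pow Nat.prime_two).1 hdvd
    have hp : IsPGroup 2 Q := IsPGroup.of_card (n := j + 1) (by rw [hQ, hj, pow_succ])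
    have : Fact (Nat.Prime 2) := ⟨Nat.prime_two⟩
    have : Nontrivial Q := ⟨⟨a, 1, ha1⟩⟩
    have := hp.center_nontrivial
    exact hcl (hmin _ inferInstance
      ((Subgroup.nontrivial_iff_ne_bot _).1 this))
  · refine ⟨K, b / 2, by omega, degLE_normal_half hb K hK, budget_three hb3 ?_⟩
    have hidx : K.index = Nat.card N * M.index := by
      rw [hMdef, Subgroup.index_comap_of_surjective _ hπ, N.card_mul_index]
      rfl
    rw [hidx, show b ^ 3 = b ^ 2 * b by ring]
    exact Nat.mul_le_mul (Nat.le_of_dvd (by positivity) hdvd) hfb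

end Cfsg.Agent.Lib.IsaacsPassman
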