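import Cfsg.Agent.Lib.Char.Degree
import Cfsg.Agent.Lib.Char.Clifford
import Cfsg.Agent.Lib.Char.Kernel
import Cfsg.Agent.S0187

/-!
# Bounded character degrees: reduction tools

Tools for the theorem of Isaacs and Passman bounding the index of an abelian subgroup by a
function of the largest irreducible character degree.
-/

set_option autoImplicit false
set_option linter.unusedSectionVars false

namespace Cfsg.Agent.Lib.IsaacsPassman

open Cfsg Cfsg.Agent.Lib.Char
open scoped ComplexConjugate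

universe u

/-- All irreducible character degrees of `G` are at most `b`. -/
def DegLE (G : Type u) [Group G] (b : ℕ) : Prop :=
  ∀ χ : IrrCharacter G, charDegree (χ : G → ℂ) ≤ b

/-- An inductive step: a subgroup with smaller degrees and small enough index. -/
def Reduction (G : Type u) [Group G] (b : ℕ) : Prop :=
  ∃ (H : Subgroup G) (c : ℕ), c < b ∧ DegLE H c ∧
    H.index * c.factorial ^ 2 ≤ b.factorial ^ 2

variable {G : Type u} [Group G] [Finite G] {b : ℕ}

theorem apply_one_deg (χ : IrrCharacter G) : (χ : G → ℂ) 1 = (charDegree (χ : G → ℂ) : ℂ) :=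
  apply_one_eq_charDegree (isCharacter_of_isIrr χ.2)

theorem apply_one_ne (χ : IrrCharacter G) : (χ : G → ℂ) 1 ≠ 0 := by
  have := Fintype.ofFinite G
  exact irr_degree_ne_zero χ.2

/-- A sum over a subgroup as a sum over the group. -/
theorem sum_subgroup [Fintype G] (H : Subgroup G) [Fintype H] [DecidablePred (· ∈ H)]
    (F : G → ℂ) : ∑ h : H, F h = ∑ g : G, if g ∈ H then F g else 0 := by
  rw [← Finset.sum_filter, Finset.sum_subtype (p := (· ∈ H)) _ (by simp)]

/-- Multiplicities multiply along a restriction. -/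
theorem mul_le_restrict [Fintype G] (H : Subgroup G) [Fintype H] {φ : G → ℂ}
    (hφ : IsCharacter G φ) (η : IrrCharacter G) {θ : H → ℂ} (hθ : IsCharacter H θ) {n m k : ℕ}
    (hn : classInner φ η = n) (hm : classInner (fun h : H => (η : G → ℂ) h) θ = m)
    (hk : classInner (fun h : H => φ h) θ = k) : n * m ≤ k := by
  classical
  choose a ha using fun ξ : IrrCharacter G => classInner_natCast hφ (isCharacter_of_isIrr ξ.2)
  choose c hc using fun ξ : IrrCharacter G =>
    classInner_natCast (isCharacter_restrict (isCharacter_of_isIrr ξ.2) H) hθ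
  have he : (fun h : H => φ h) =
      ∑ ξ : IrrCharacter G, (a ξ : ℂ) • (fun h : H => (ξ : G → ℂ) h) := by
    funext h
    conv_lhs => rw [eq_sum_classInner_smul (isClassFunction_of_isCharacter hφ)]
    simp [ha, Finset.sum_apply]
  rw [he, classInner_sum_left] at hk
  simp only [classInner_smul_left, hc] at hk
  have hk' : ∑ ξ, a ξ * c ξ = k := by exact_mod_cast hk
  have e1 : a η = n := by exact_mod_cast (ha η).symm.trans hn
  have e2 : c η = m := by exact_mod_cast (hc η).symm.trans hm
  rw [← e1, ← e2, ← hk']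
  exact Finset.single_le_sum (f := fun ξ => a ξ * c ξ) (fun _ _ => Nat.zero_le _)
    (Finset.mem_univ η)

/-- The degree of an irreducible character as a combination of degrees on a subgroup. -/
theorem restrict_expansion [Fintype G] (H : Subgroup G) [Fintype H] (ψ : IrrCharacter G) :
    ∃ a : IrrCharacter H → ℕ,
      (∀ ξ : IrrCharacter H, classInner (fun h : H => (ψ : G → ℂ) h) ξ = a ξ) ∧
      (fun h : H => (ψ : G → ℂ) h) = ∑ ξ : IrrCharacter H, (a ξ : ℂ) • (ξ : H → ℂ) ∧
      ∑ ξ : IrrCharacter H, a ξ * charDegree (ξ : H → ℂ) = charDegree (ψ : G → ℂ) := by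
  classical
  have hc := isCharacter_restrict (isCharacter_of_isIrr ψ.2) H
  choose a ha using fun ξ : IrrCharacter H => classInner_natCast hc (isCharacter_of_isIrr ξ.2)
  have he : (fun h : H => (ψ : G → ℂ) h) = ∑ ξ : IrrCharacter H, (a ξ : ℂ) • (ξ : H → ℂ) := by
    conv_lhs => rw [eq_sum_classInner_smul (isClassFunction_of_isCharacter hc)]
    simp only [ha]
  refine ⟨a, ha, he, ?_⟩
  have h1 := congrFun he 1
  simp only [Subgroup.coe_one, Finset.sum_apply, Pi.smul_apply, smul_eq_mul, apply_one_deg] at h1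
  exact_mod_cast h1.symm

/-- An irreducible character lying over one of at least its degree restricts to it. -/
theorem restrict_eq_of_degree_le [Fintype G] (H : Subgroup G) [Fintype H] (ψ : IrrCharacter G)
    (θ : IrrCharacter H) (h : classInner (fun h : H => (ψ : G → ℂ) h) θ ≠ 0)
    (hle : charDegree (ψ : G → ℂ) ≤ charDegree (θ : H → ℂ)) :
    (fun h : H => (ψ : G → ℂ) h) = (θ : H → ℂ) := by
  classical
  obtain ⟨a, ha, he, hdeg⟩ := restrict_expansion H ψ
  have hpos : 0 < a θ := Nat.pos_of_ne_zero fun e => h (by rw [ha θ, e, Nat.cast_zero])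
  have hd : 0 < charDegree (θ : H → ℂ) := charDegree_pos θ.2
  have hsplit := Finset.add_sum_erase Finset.univ
    (fun ξ : IrrCharacter H => a ξ * charDegree (ξ : H → ℂ)) (Finset.mem_univ θ)
  rw [hdeg] at hsplit
  have hmul : charDegree (θ : H → ℂ) ≤ a θ * charDegree (θ : H → ℂ) :=
    Nat.le_mul_of_pos_left _ hpos
  have hone : a θ = 1 := by
    have : a θ * charDegree (θ : H → ℂ) ≤ 1 * charDegree (θ : H → ℂ) := by omega
    have := Nat.le_of_mul_le_mul_right this hd
    omega
  have hrest : ∑ ξ ∈ Finset.univ.erase θ, a ξ * charDegree (ξ : H → ℂ) = 0 := by omega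
  rw [he, Finset.sum_eq_single θ]
  · rw [hone, Nat.cast_one, one_smul]
  · intro ξ _ hξ
    have h0 := Finset.sum_eq_zero_iff.1 hrest ξ (Finset.mem_erase.2 ⟨hξ, Finset.mem_univ ξ⟩)
    rw [(Nat.mul_eq_zero.1 h0).resolve_right (charDegree_pos ξ.2).ne', Nat.cast_zero, zero_smul]
  · simp

/-- The degree of a character of a subgroup is at most that of a character over it. -/
theorem degree_le_of_over [Fintype G] (H : Subgroup G) [Fintype H] (ψ : IrrCharacter G)
    (θ : IrrCharacter H) (h : classInner (fun h : H => (ψ : G → ℂ) h) θ ≠ 0) :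
    charDegree (θ : H → ℂ) ≤ charDegree (ψ : G → ℂ) := by
  classical
  obtain ⟨a, ha, -, hdeg⟩ := restrict_expansion H ψ
  have hpos : 0 < a θ := Nat.pos_of_ne_zero fun e => h (by rw [ha θ, e, Nat.cast_zero])
  rw [← hdeg]
  exact (Nat.le_mul_of_pos_left _ hpos).trans
    (Finset.single_le_sum (f := fun ξ : IrrCharacter H => a ξ * charDegree (ξ : H → ℂ))
      (fun _ _ => Nat.zero_le _) (Finset.mem_univ θ))

theorem degLE_subgroup (hb : DegLE G b) (H : Subgroup G) : DegLE H b := by
  have := Fintype.ofFinite G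
  have := Fintype.ofFinite H
  intro θ
  obtain ⟨ψ, hψ⟩ := exists_irr_over H θ.2
  exact (degree_le_of_over H ψ θ hψ).trans (hb ψ)

theorem charDegree_inflate (N : Subgroup G) [N.Normal] (ψ : IrrCharacter (G ⧸ N)) :
    charDegree ((inflateEquiv N ψ).1 : G → ℂ) = charDegree (ψ : G ⧸ N → ℂ) := by
  refine charDegree_eq_of_apply_one ?_
  rw [inflateEquiv_apply, QuotientGroup.mk_one, apply_one_deg]

theorem degLE_quotient (hb : DegLE G b) (N : Subgroup G) [N.Normal] : DegLE (G ⧸ N) b :=
  fun ψ => charDegree_inflate N ψ ▸ hb _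

/-- A noncommutative group has a nonlinear irreducible character. -/
theorem exists_nonlinear (h : ¬ ∀ a c : G, a * c = c * a) :
    ∃ χ : IrrCharacter G, 2 ≤ charDegree (χ : G → ℂ) := by
  by_contra hc
  push Not at hc
  refine h ((Cfsg.Agent.S0187.result).2 fun χ => ?_)
  have h1 := hc χ
  have h2 : 0 < charDegree (χ : G → ℂ) := charDegree_pos χ.2
  rw [apply_one_deg, show charDegree (χ : G → ℂ) = 1 by omega, Nat.cast_one]

theorem quotient_not_comm {K : Subgroup G} [K.Normal] (hK : ¬ commutator G ≤ K) :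
    ¬ ∀ a c : G ⧸ K, a * c = c * a := by
  intro h
  apply hK
  rw [commutator_def, Subgroup.commutator_le]
  intro x _ y _
  rw [← QuotientGroup.eq_one_iff, commutatorElement_def]
  simp only [QuotientGroup.mk_mul, QuotientGroup.mk_inv]
  rw [h (QuotientGroup.mk x) (QuotientGroup.mk y)]
  group

/-- The degrees of a normal subgroup with noncommutative quotient are at most half. -/
theorem two_mul_deg_le [Fintype G] (hb : DegLE G b) (K : Subgroup G) [K.Normal] [Fintype K]
    (hK : ¬ commutator G ≤ K) (θ : IrrCharacter K) :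
    2 * charDegree (θ : K → ℂ) ≤ b := by
  classical
  by_contra hlt
  push Not at hlt
  have hd : 0 < charDegree (θ : K → ℂ) := charDegree_pos θ.2
  obtain ⟨χ, hχ⟩ := exists_irr_over K θ.2
  have hχK : (fun k : K => (χ : G → ℂ) k) = (θ : K → ℂ) := by
    have hdeg := clifford_degree K χ.2 θ.2 hχ
    obtain ⟨m, hm⟩ := classInner_natCast (isCharacter_restrict (isCharacter_of_isIrr χ.2) K)
      (isCharacter_of_isIrr θ.2)
    have hm0 : 0 < m := Nat.pos_of_ne_zero fun e => hχ (by rw [hm, e, Nat.cast_zero])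
    rw [hm, apply_one_deg, apply_one_deg] at hdeg
    have hdeg' : charDegree (χ : G → ℂ) =
        m * (inertia K (θ : K → ℂ)).index * charDegree (θ : K → ℂ) := by exact_mod_cast hdeg
    have hi : 0 < (inertia K (θ : K → ℂ)).index :=
      Nat.pos_of_ne_zero Subgroup.index_ne_zero_of_finite
    have hle : m * (inertia K (θ : K → ℂ)).index < 2 := by
      have := hb χ
      exact Nat.lt_of_mul_lt_mul_right (a := charDegree (θ : K → ℂ)) (by omega)
    refine restrict_eq_of_degree_le K χ θ hχ ?_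
    rw [hdeg', show m * (inertia K (θ : K → ℂ)).index = 1 by
      have := Nat.mul_pos hm0 hi; omega, one_mul]
  obtain ⟨τ₀, hτ₀⟩ := exists_nonlinear (quotient_not_comm hK)
  set τ : IrrCharacter G := (inflateEquiv K τ₀).1 with hτdef
  have hτK : ∀ k : K, (τ : G → ℂ) k = (charDegree (τ : G → ℂ) : ℂ) := fun k => by
    rw [← apply_one_deg]
    exact (inflateEquiv K τ₀).2 k k.2
  have hτ2 : 2 ≤ charDegree (τ : G → ℂ) := by rw [hτdef, charDegree_inflate]; exact hτ₀
  set φ : G → ℂ := (χ : G → ℂ) * (τ : G → ℂ) with hφdef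
  have hφc : IsCharacter G φ :=
    isCharacter_mul (isCharacter_of_isIrr χ.2) (isCharacter_of_isIrr τ.2)
  obtain ⟨η, hη⟩ := exists_constituent hφc fun h => by
    have := congrFun h 1
    rw [hφdef, Pi.mul_apply, Pi.zero_apply, mul_eq_zero] at this
    exact this.elim (apply_one_ne χ) (apply_one_ne τ)
  obtain ⟨n, hn⟩ := classInner_natCast hφc (isCharacter_of_isIrr η.2)
  have hn0 : n ≠ 0 := fun e => hη (by rw [hn, e, Nat.cast_zero])
  have hφK : (fun k : K => φ k) = (charDegree (τ : G → ℂ) : ℂ) • (θ : K → ℂ) := by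
    funext k
    rw [hφdef, Pi.mul_apply, Pi.smul_apply, smul_eq_mul, hτK k, mul_comm]
    exact congrArg _ (congrFun hχK k)
  obtain ⟨a, ha, hexp, hdega⟩ := restrict_expansion K η
  have hzero : ∀ ξ : IrrCharacter K, ξ ≠ θ → a ξ = 0 := by
    intro ξ hξ
    have h0 : classInner (fun k : K => φ k) ξ = ((0 : ℕ) : ℂ) := by
      rw [hφK, classInner_smul_left,
        classInner_irr_ne θ.2 ξ.2 (fun e => hξ (Subtype.ext e.symm)), mul_zero, Nat.cast_zero]
    have := mul_le_restrict K hφc η (isCharacter_of_isIrr ξ.2) hn (ha ξ) h0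
    exact (Nat.mul_eq_zero.1 (Nat.le_zero.1 this)).resolve_left hn0
  rw [Finset.sum_eq_single θ (fun ξ _ hξ => by rw [hzero ξ hξ, zero_mul]) (by simp)] at hdega
  have ha1 : a θ = 1 := by
    have hpos : 0 < charDegree (η : G → ℂ) := charDegree_pos η.2
    have := hb η
    rcases Nat.lt_or_ge (a θ) 2 with h | h
    · rcases Nat.eq_zero_or_pos (a θ) with h0 | h0
      · rw [h0, zero_mul] at hdega; omega
      · omega
    · have := Nat.mul_le_mul_right (charDegree (θ : K → ℂ)) h; omega
  have hηK : (fun k : K => (η : G → ℂ) k) = (θ : K → ℂ) := by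
    rw [hexp, Finset.sum_eq_single θ (fun ξ _ hξ => by rw [hzero ξ hξ, Nat.cast_zero, zero_smul])
      (by simp), ha1, Nat.cast_one, one_smul]
  -- the product `conj χ * η` has the principal character once on `K`, but `τ` in it
  set ψ : G → ℂ := (fun g => conj ((χ : G → ℂ) g)) * (η : G → ℂ) with hψdef
  have hψc : IsCharacter G ψ :=
    isCharacter_mul (isCharacter_of_isIrr (isIrrCharacter_conj χ.2)) (isCharacter_of_isIrr η.2)
  have hψτ : classInner ψ τ = n := by
    rw [← Complex.conj_natCast, ← hn, ← classInner_conj_symm]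
    simp only [classInner, hψdef, hφdef, Pi.mul_apply, map_mul]
    congr 1
    exact Finset.sum_congr rfl fun g _ => by ring
  have h1K : IsIrrCharacter K (fun _ => (1 : ℂ)) := isIrrCharacter_one
  have hτ1 : classInner (fun k : K => (τ : G → ℂ) k) (fun _ => (1 : ℂ)) =
      (charDegree (τ : G → ℂ) : ℂ) := by
    rw [show (fun k : K => (τ : G → ℂ) k) = (charDegree (τ : G → ℂ) : ℂ) • (fun _ => (1 : ℂ)) by
      funext k; simp [hτK k], classInner_smul_left, classInner_irr_self h1K, mul_one]
  have hψ1 : classInner (fun k : K => ψ k) (fun _ => (1 : ℂ)) = ((1 : ℕ) : ℂ) := by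
    refine Eq.trans ?_ ((classInner_irr_self θ.2).trans Nat.cast_one.symm)
    simp only [classInner, hψdef, Pi.mul_apply, map_one, mul_one]
    congr 1
    refine Finset.sum_congr rfl fun k _ => ?_
    rw [congrFun hχK k, congrFun hηK k, mul_comm]
  have := mul_le_restrict K hψc τ (isCharacter_of_isIrr h1K) hψτ hτ1 hψ1
  have := Nat.mul_le_mul (Nat.pos_of_ne_zero hn0) hτ2
  omega

theorem degLE_normal_half (hb : DegLE G b) (K : Subgroup G) [K.Normal]
    (hK : ¬ commutator G ≤ K) : DegLE K (b / 2) := by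
  have := Fintype.ofFinite G
  have := Fintype.ofFinite K
  intro θ
  have := two_mul_deg_le hb K hK θ
  omega

/-- An abelian subgroup of a subgroup as one of the group. -/
theorem exists_abelian_of_subgroup (H : Subgroup G) {B : ℕ}
    (h : ∃ A : Subgroup H, (∀ x ∈ A, ∀ y ∈ A, x * y = y * x) ∧ A.index ≤ B) :
    ∃ A : Subgroup G, (∀ x ∈ A, ∀ y ∈ A, x * y = y * x) ∧ A.index ≤ H.index * B := by
  obtain ⟨A, hA, hi⟩ := h
  refine ⟨A.map H.subtype, ?_, ?_⟩
  · rintro _ ⟨x, hx, rfl⟩ _ ⟨y, hy, rfl⟩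
    exact congrArg Subtype.val (hA x hx y hy)
  · rw [Subgroup.index_map_subtype, mul_comm]
    exact Nat.mul_le_mul_left _ hi

theorem budget_one {x b : ℕ} (hb : 1 ≤ b) (hx : x ≤ b ^ 2) :
    x * (b - 1).factorial ^ 2 ≤ b.factorial ^ 2 := by
  rw [← Nat.mul_factorial_pred (by omega : b ≠ 0), mul_pow]
  exact Nat.mul_le_mul_right _ hx

theorem budget_three {x b : ℕ} (hb : 3 ≤ b) (hx : x ≤ b ^ 3) :
    x * (b / 2).factorial ^ 2 ≤ b.factorial ^ 2 := by
  obtain ⟨c, rfl⟩ : ∃ c, b = c + 2 := ⟨b - 2, by omega⟩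
  have hf : ((c + 2) / 2).factorial ≤ c.factorial := Nat.factorial_le (by omega)
  have he : (c + 2).factorial = (c + 2) * (c + 1) * c.factorial := by
    simp [Nat.factorial_succ, mul_assoc]
  rw [he, mul_pow]
  refine Nat.mul_le_mul (hx.trans ?_) (Nat.pow_le_pow_left hf 2)
  have : c + 2 ≤ (c + 1) ^ 2 := by nlinarith
  calc (c + 2) ^ 3 = (c + 2) ^ 2 * (c + 2) := by ring
    _ ≤ (c + 2) ^ 2 * (c + 1) ^ 2 := Nat.mul_le_mul_left _ this
    _ = ((c + 2) * (c + 1)) ^ 2 := by ring

theorem budget_four {x b : ℕ} (hb : 5 ≤ b) (hx : x ≤ b ^ 4) :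
    x * (b / 2).factorial ^ 2 ≤ b.factorial ^ 2 := by
  obtain ⟨c, rfl⟩ : ∃ c, b = c + 3 := ⟨b - 3, by omega⟩
  have hf : ((c + 3) / 2).factorial ≤ c.factorial := Nat.factorial_le (by omega)
  have he : (c + 3).factorial = (c + 3) * (c + 2) * (c + 1) * c.factorial := by
    simp [Nat.factorial_succ, mul_assoc]
  rw [he, mul_pow]
  refine Nat.mul_le_mul (hx.trans ?_) (Nat.pow_le_pow_left hf 2)
  have : c + 3 ≤ (c + 2) * (c + 1) := by nlinarith
  calc (c + 3) ^ 4 = (c + 3) ^ 2 * (c + 3) ^ 2 := by ring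
    _ ≤ (c + 3) ^ 2 * ((c + 2) * (c + 1)) ^ 2 :=
      Nat.mul_le_mul_left _ (Nat.pow_le_pow_left this 2)
    _ = ((c + 3) * (c + 2) * (c + 1)) ^ 2 := by ring

end Cfsg.Agent.Lib.IsaacsPassman
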