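import Cfsg.Agent.Lib.IsaacsPassman.Basic
import Cfsg.Agent.Lib.Char.Scalar

/-!
# Minimal nonabelian quotient with central derived subgroup
-/

set_option autoImplicit false
set_option linter.unusedSectionVars false

namespace Cfsg.Agent.Lib.IsaacsPassman

open Cfsg Cfsg.Agent.Lib.Char
open scoped ComplexConjugate commutatorElement

universe u

/-- If every nontrivial normal subgroup contains the derived subgroup, some nonlinear
irreducible character is faithful. -/
theorem exists_faithful_nonlinear {Q : Type u} [Group Q] [Finite Q]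
    (hmin : ∀ L : Subgroup Q, L.Normal → L ≠ ⊥ → commutator Q ≤ L)
    (hne : ¬ ∀ a c : Q, a * c = c * a) :
    ∃ χ : IrrCharacter Q, 2 ≤ charDegree (χ : Q → ℂ) ∧
      ∀ g, (χ : Q → ℂ) g = (χ : Q → ℂ) 1 → g = 1 := by
  obtain ⟨χ, hχ⟩ := exists_nonlinear hne
  refine ⟨χ, hχ, fun g hg => ?_⟩
  by_contra hg1
  have hc := isCharacter_of_isIrr χ.2
  have hker : commutator Q ≤ charKer (χ : Q → ℂ) := by
    refine hmin _ (charKer_normal hc) fun h => hg1 ?_
    have := (mem_charKer hc).2 hg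
    rwa [h, Subgroup.mem_bot] at this
  obtain ⟨ψ, hψ, he⟩ := exists_irr_deflation χ.2 (commutator Q)
    fun n hn => (mem_charKer hc).1 (hker hn)
  have h1 : ψ 1 = 1 :=
    (Cfsg.Agent.S0187.result (G := Q ⧸ commutator Q)).1
      (fun x y => @mul_comm (Abelianization Q) _ x y) ⟨ψ, hψ⟩
  have h2 := he 1
  rw [QuotientGroup.mk_one, h1] at h2
  have : charDegree (χ : Q → ℂ) = 1 := charDegree_eq_of_apply_one (by rw [← h2, Nat.cast_one])
  omega

/-- A faithful irreducible character of a group of class two lives on the centre. -/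
theorem central_support {Q : Type u} [Group Q] [Fintype Q] (χ : IrrCharacter Q)
    (hf : ∀ g, (χ : Q → ℂ) g = (χ : Q → ℂ) 1 → g = 1)
    (hcl : commutator Q ≤ Subgroup.center Q) :
    (∀ g ∉ Subgroup.center Q, (χ : Q → ℂ) g = 0) ∧
      (∀ z ∈ Subgroup.center Q,
        (χ : Q → ℂ) z * conj ((χ : Q → ℂ) z) = (charDegree (χ : Q → ℂ) : ℂ) ^ 2) ∧
      charDegree (χ : Q → ℂ) ^ 2 = (Subgroup.center Q).index := by
  classical
  have hc := isCharacter_of_isIrr χ.2
  have hzn : ∀ z ∈ Subgroup.center Q, ‖(χ : Q → ℂ) z‖ = ‖(χ : Q → ℂ) 1‖ :=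
    fun z hz => norm_char_of_mem_center χ.2 hz
  have hzero : ∀ g ∉ Subgroup.center Q, (χ : Q → ℂ) g = 0 := by
    intro g hg
    obtain ⟨x, hx⟩ : ∃ x, x * g ≠ g * x := by
      by_contra h; push Not at h; exact hg (Subgroup.mem_center_iff.2 h)
    set c := x * g * x⁻¹ * g⁻¹ with hcdef
    have hcZ : c ∈ Subgroup.center Q := hcl (by
      rw [commutator_def]
      exact Subgroup.commutator_mem_commutator (Subgroup.mem_top x) (Subgroup.mem_top g))
    have h1 := (apply_mul_of_norm_eq hc (hzn c hcZ) g).1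
    rw [show c * g = x * g * x⁻¹ by rw [hcdef]; group, isClassFunction_of_isIrr χ.2 g x] at h1
    have hc1 : (χ : Q → ℂ) c ≠ (χ : Q → ℂ) 1 := fun e => hx (by
      have h := hf c e
      rwa [hcdef, mul_inv_eq_one, mul_inv_eq_iff_eq_mul] at h)
    by_contra h0
    exact hc1 (mul_left_cancel₀ h0 (by rw [h1, mul_comm]))
  have hsq : ∀ z ∈ Subgroup.center Q,
      (χ : Q → ℂ) z * conj ((χ : Q → ℂ) z) = (charDegree (χ : Q → ℂ) : ℂ) ^ 2 := by
    intro z hz
    rw [Complex.mul_conj, Complex.normSq_eq_norm_sq, hzn z hz, apply_one_deg,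
      Complex.norm_natCast]
    norm_num
  refine ⟨hzero, hsq, ?_⟩
  have hn := classInner_irr_self χ.2
  rw [classInner, inv_mul_eq_one₀ (card_ne_zero_complex Q)] at hn
  have hs : ∑ g : Q, (χ : Q → ℂ) g * conj ((χ : Q → ℂ) g) =
      (Nat.card (Subgroup.center Q) : ℂ) * (charDegree (χ : Q → ℂ) : ℂ) ^ 2 := by
    rw [← Finset.sum_subset (Finset.subset_univ
      (Finset.univ.filter fun g => g ∈ Subgroup.center Q))
      (fun g _ hg => by rw [hzero g (by simpa using hg), zero_mul])]
    rw [Finset.sum_congr rfl fun g hg => hsq g (by simpa using hg), Finset.sum_const,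
      nsmul_eq_mul, Nat.card_eq_fintype_card, Fintype.card_subtype]
  rw [hs] at hn
  have h : Nat.card Q = Nat.card (Subgroup.center Q) * charDegree (χ : Q → ℂ) ^ 2 := by
    exact_mod_cast hn
  rw [← (Subgroup.center Q).card_mul_index] at h
  exact (Nat.eq_of_mul_eq_mul_left Nat.card_pos h).symm

variable {G : Type u} [Group G] [Finite G] {b : ℕ}

/-- The reduction when the derived subgroup of `G ⧸ K` is central. -/
theorem reduction_central (hb : DegLE G b) (K : Subgroup G) [K.Normal]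
    (hne : ¬ ∀ a c : G ⧸ K, a * c = c * a)
    (hmin : ∀ L : Subgroup (G ⧸ K), L.Normal → L ≠ ⊥ → commutator (G ⧸ K) ≤ L)
    (hcl : commutator (G ⧸ K) ≤ Subgroup.center (G ⧸ K)) : Reduction G b := by
  classical
  have := Fintype.ofFinite G
  have := Fintype.ofFinite (G ⧸ K)
  obtain ⟨χ, hd2, hf⟩ := exists_faithful_nonlinear hmin hne
  obtain ⟨hzero, hsq, hidx⟩ := central_support χ hf hcl
  set H : Subgroup G := (Subgroup.center (G ⧸ K)).comap (QuotientGroup.mk' K) with hHdef
  have hH : H.index = charDegree (χ : G ⧸ K → ℂ) ^ 2 := by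
    rw [hHdef, Subgroup.index_comap_of_surjective _ (QuotientGroup.mk'_surjective K), hidx]
  have hdb : charDegree (χ : G ⧸ K → ℂ) ≤ b := degLE_quotient hb K χ
  refine ⟨H, b - 1, by omega, fun θ => ?_,
    budget_one (by omega) (hH ▸ Nat.pow_le_pow_left hdb 2)⟩
  by_contra hθ
  have := Fintype.ofFinite H
  obtain ⟨ψ, hψ⟩ := exists_irr_over H θ.2
  have hψH := restrict_eq_of_degree_le H ψ θ hψ (by have := hb ψ; omega)
  have hψb : charDegree (ψ : G → ℂ) = b := by
    have := hb ψ
    have := degree_le_of_over H ψ θ hψ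
    omega
  set τ : IrrCharacter G := (inflateEquiv K χ).1 with hτdef
  have hφc : IsCharacter G ((ψ : G → ℂ) * (τ : G → ℂ)) :=
    isCharacter_mul (isCharacter_of_isIrr ψ.2) (isCharacter_of_isIrr τ.2)
  have hirr : IsIrrCharacter G ((ψ : G → ℂ) * (τ : G → ℂ)) := by
    refine isIrrCharacter_of_norm_one hφc ?_
    have hterm : ∀ g : G, ((ψ : G → ℂ) * (τ : G → ℂ)) g *
        conj (((ψ : G → ℂ) * (τ : G → ℂ)) g) =
        if g ∈ H then (charDegree (χ : G ⧸ K → ℂ) : ℂ) ^ 2 *
          ((ψ : G → ℂ) g * conj ((ψ : G → ℂ) g)) else 0 := by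
      intro g
      rw [Pi.mul_apply, hτdef, inflateEquiv_apply, map_mul, mul_mul_mul_comm]
      split_ifs with hg
      · rw [hsq (QuotientGroup.mk g) hg, mul_comm]
      · rw [hzero (QuotientGroup.mk g) hg, zero_mul, mul_zero]
    have hθn := classInner_irr_self θ.2
    rw [← hψH, classInner, inv_mul_eq_one₀ (card_ne_zero_complex H)] at hθn
    rw [classInner, inv_mul_eq_one₀ (card_ne_zero_complex G), Finset.sum_congr rfl fun g _ => hterm g,
      ← sum_subgroup H (fun g => (charDegree (χ : G ⧸ K → ℂ) : ℂ) ^ 2 *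
        ((ψ : G → ℂ) g * conj ((ψ : G → ℂ) g))), ← Finset.mul_sum, ← hθn,
      ← H.index_mul_card, hH]
    push_cast
    ring
  have h := hb ⟨_, hirr⟩
  rw [charDegree_mul (isCharacter_of_isIrr ψ.2) (isCharacter_of_isIrr τ.2), hψb,
    hτdef, charDegree_inflate] at h
  have := Nat.mul_le_mul_left b hd2
  omega

end Cfsg.Agent.Lib.IsaacsPassman
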