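import Cfsg.Agent.Lib.IsaacsPassman.Basic
import Cfsg.Agent.Lib.Char.Scalar
import Cfsg.Agent.Lib.Char.Burnside
import Mathlib.GroupTheory.GroupAction.CardCommute

/-!
# Minimal nonabelian quotient with nonabelian derived subgroup
-/

set_option autoImplicit false
set_option linter.unusedSectionVars false

namespace Cfsg.Agent.Lib.IsaacsPassman

open Cfsg Cfsg.Agent.Lib.Char
open scoped ComplexConjugate commutatorElement

universe u

/-- A perfect group with no proper nontrivial normal subgroup has a degree of at least five. -/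
theorem exists_deg_ge_five_of_simple {T : Type u} [Group T] [Finite T] [Nontrivial T]
    (hperf : commutator T = ⊤) (hsimp : ∀ L : Subgroup T, L.Normal → L = ⊥ ∨ L = ⊤) :
    ∃ χ : IrrCharacter T, 5 ≤ charDegree (χ : T → ℂ) := by
  classical
  have := Fintype.ofFinite T
  by_contra hc
  push Not at hc
  have hlin : ∀ χ : IrrCharacter T, charDegree (χ : T → ℂ) = 1 → (χ : T → ℂ) = fun _ => 1 := by
    intro χ h
    obtain ⟨l, hl⟩ := exists_hom_of_degree_one (isCharacter_of_isIrr χ.2)
      (by rw [apply_one_deg, h, Nat.cast_one])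
    funext g
    have hg : g ∈ l.ker := (Abelianization.commutator_subset_ker l) (hperf ▸ Subgroup.mem_top g)
    rw [hl g, MonoidHom.mem_ker.1 hg, Units.val_one]
  have hcentre : Subgroup.center T = ⊥ := by
    refine (hsimp _ inferInstance).resolve_right fun h => ?_
    have h1 : commutator T = ⊥ := (commutator_eq_bot_iff_center_eq_top (G := T)).2 h
    rw [hperf] at h1
    exact bot_ne_top h1.symm
  -- an element with class size prime to three, unless three does not divide the order
  obtain ⟨x, hx1, hx3⟩ : ∃ x : T, x ≠ 1 ∧ (3 ∣ Nat.card T →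
      ¬ 3 ∣ (Subgroup.centralizer ({x} : Set T)).index) := by
    by_cases h3 : 3 ∣ Nat.card T
    · have : Fact (Nat.Prime 3) := ⟨Nat.prime_three⟩
      let P : Sylow 3 T := default
      have hP : Nontrivial P := by
        rw [Subgroup.nontrivial_iff_ne_bot]
        exact P.ne_bot_of_dvd_card h3
      have := P.isPGroup'.center_nontrivial
      obtain ⟨⟨z, hz⟩, hz1⟩ := exists_ne (1 : Subgroup.center P)
      refine ⟨z, fun e => hz1 (Subtype.ext (Subtype.ext e)), fun _ h => P.not_dvd_index
        (h.trans (Subgroup.index_dvd_of_le fun p hp => ?_))⟩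
      rw [Subgroup.mem_centralizer_singleton_iff]
      exact congrArg Subtype.val (Subgroup.mem_center_iff.1 hz ⟨p, hp⟩)
    · obtain ⟨x, hx⟩ := exists_ne (1 : T)
      exact ⟨x, hx, fun h => absurd h h3⟩
  have hdeg3 : ∀ χ : IrrCharacter T, charDegree (χ : T → ℂ) = 3 → (χ : T → ℂ) x = 0 := by
    intro χ h
    have hdvd : 3 ∣ Nat.card T := h ▸ charDegree_dvd_card χ.2
    rcases char_eq_zero_or_norm_eq χ.2 (n := 3) (by rw [apply_one_deg, h]) x
      ((Nat.prime_three.coprime_iff_not_dvd).2 (hx3 hdvd)) with h0 | hnorm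
    · exact h0
    exfalso
    have hχc := isCharacter_of_isIrr χ.2
    have hn : ‖(χ : T → ℂ) x‖ = ‖(χ : T → ℂ) 1‖ := by
      rw [hnorm, apply_one_deg, h, Complex.norm_natCast]
    have hxmem : x ∈ Subgroup.center T := Subgroup.mem_center_iff.2 fun g => by
      have h1 := (apply_mul_of_norm_eq hχc hn (g * x⁻¹ * g⁻¹)).1
      rw [isClassFunction_of_isCharacter hχc x⁻¹ g] at h1
      have h2 := (apply_mul_of_norm_eq hχc hn x⁻¹).1
      rw [mul_inv_cancel] at h2
      have h3 : (χ : T → ℂ) (x * (g * x⁻¹ * g⁻¹)) = (χ : T → ℂ) 1 :=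
        mul_right_cancel₀ (apply_one_ne χ) (h1.trans h2.symm)
      have hker : charKer (χ : T → ℂ) = ⊥ := by
        refine (hsimp _ (charKer_normal hχc)).resolve_right fun htop => ?_
        have hall : (χ : T → ℂ) = fun _ => (3 : ℂ) := funext fun t => by
          rw [(mem_charKer hχc).1 (htop ▸ Subgroup.mem_top t), apply_one_deg, h]
          norm_num
        have h9 := classInner_irr_self χ.2
        rw [hall, classInner, inv_mul_eq_one₀ (card_ne_zero_complex T)] at h9
        simp [Finset.sum_const, map_ofNat] at h9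
        norm_num at h9
      have h4 := (mem_charKer hχc).2 h3
      rw [hker, Subgroup.mem_bot] at h4
      calc g * x = (x * (g * x⁻¹ * g⁻¹))⁻¹ * (x * g) := by group
        _ = x * g := by rw [h4, inv_one, one_mul]
    rw [hcentre, Subgroup.mem_bot] at hxmem
    exact hx1 hxmem
  let one : IrrCharacter T := ⟨fun _ => 1, isIrrCharacter_one⟩
  let A : IrrCharacter T → ℂ := fun χ =>
    if charDegree (χ : T → ℂ) = 2 then (χ : T → ℂ) x
    else if charDegree (χ : T → ℂ) = 4 then 2 * (χ : T → ℂ) x else 0
  have hterm : ∀ χ : IrrCharacter T, (χ : T → ℂ) 1 * (χ : T → ℂ) x =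
      (if χ = one then 1 else 0) + 2 * A χ := by
    intro χ
    have hp : 0 < charDegree (χ : T → ℂ) := charDegree_pos χ.2
    have hlt := hc χ
    rw [apply_one_deg]
    by_cases h1 : χ = one
    · subst h1
      simp [A, one, charDegree_one]
    rw [if_neg h1, zero_add]
    have hd : charDegree (χ : T → ℂ) ≠ 1 := fun h => h1 (Subtype.ext (hlin χ h))
    simp only [A]
    obtain h | h | h : charDegree (χ : T → ℂ) = 2 ∨ charDegree (χ : T → ℂ) = 3 ∨
        charDegree (χ : T → ℂ) = 4 := by omega
    · simp [h]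
    · simp [h, hdeg3 χ h]
    · simp [h]; ring
  have hA : IsIntegral ℤ (∑ χ, A χ) := by
    refine IsIntegral.sum _ fun χ _ => ?_
    have hi := char_isIntegral (isCharacter_of_isIrr χ.2) x
    simp only [A]
    split_ifs
    · exact hi
    · exact (isIntegral_algebraMap (R := ℤ) (A := ℂ) (x := 2)).mul hi
    · exact isIntegral_zero
  have hsum := sum_degree_mul x
  rw [if_neg hx1, Finset.sum_congr rfl fun χ _ => hterm χ, Finset.sum_add_distrib,
    Finset.sum_ite_eq' Finset.univ one, if_pos (Finset.mem_univ _), ← Finset.mul_sum] at hsum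
  have hhalf : ∑ χ, A χ = ((-1 / 2 : ℚ) : ℂ) := by
    push_cast
    linear_combination hsum / 2
  obtain ⟨z, hz⟩ := exists_int_of_isIntegral (hhalf ▸ hA)
  have h2 : ((2 * z : ℤ) : ℚ) = ((-1 : ℤ) : ℚ) := by push_cast; rw [← hz]; norm_num
  have h3 : 2 * z = -1 := by exact_mod_cast h2
  omega

/-- A nontrivial perfect group has an irreducible character of degree at least five. -/
theorem exists_deg_ge_five {P : Type u} [Group P] [Finite P] [Nontrivial P]
    (hperf : commutator P = ⊤) : ∃ χ : IrrCharacter P, 5 ≤ charDegree (χ : P → ℂ) := by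
  classical
  obtain ⟨L, hL⟩ := (Set.toFinite {L : Subgroup P | L.Normal ∧ L ≠ ⊤}).exists_maximal
    ⟨⊥, inferInstance, bot_ne_top⟩
  have := hL.1.1
  have : Nontrivial (P ⧸ L) := by
    rw [← not_subsingleton_iff_nontrivial, QuotientGroup.subsingleton_iff]
    exact hL.1.2
  have hπ := QuotientGroup.mk'_surjective L
  obtain ⟨χ, hχ⟩ := exists_deg_ge_five_of_simple (T := P ⧸ L) (by
    rw [commutator_def, ← Subgroup.map_top_of_surjective _ hπ, ← Subgroup.map_commutator,
      ← commutator_def, hperf]) fun M hM => by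
    by_cases htop : M = ⊤
    · exact Or.inr htop
    refine Or.inl ?_
    have hne : M.comap (QuotientGroup.mk' L) ≠ ⊤ := fun h => htop (by
      rw [← Subgroup.map_comap_eq_self_of_surjective hπ M, h,
        Subgroup.map_top_of_surjective _ hπ])
    have hle : L ≤ M.comap (QuotientGroup.mk' L) := fun l hl => by
      rw [Subgroup.mem_comap, QuotientGroup.mk'_apply, (QuotientGroup.eq_one_iff l).2 hl]
      exact one_mem _
    have h2 := hL.2 ⟨hM.comap _, hne⟩ hle
    rw [← Subgroup.map_comap_eq_self_of_surjective hπ M, Subgroup.map_eq_bot_iff,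
      QuotientGroup.ker_mk']
    exact h2
  exact ⟨(inflateEquiv L χ).1, by rw [charDegree_inflate]; exact hχ⟩

variable {G : Type u} [Group G] [Finite G] {b : ℕ}

/-- The group order is at most the class number times the square of the largest degree. -/
theorem card_le_classes_mul (hb : DegLE G b) :
    Nat.card G ≤ Nat.card (ConjClasses G) * b ^ 2 := by
  classical
  rw [← sum_charDegree_sq (G := G), ← card_irr_eq_card_conjClasses, Nat.card_eq_fintype_card]
  refine (Finset.sum_le_card_nsmul Finset.univ _ (b ^ 2) fun χ _ =>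
    Nat.pow_le_pow_left (hb χ) 2).trans ?_
  rw [Finset.card_univ, smul_eq_mul]

/-- A small class outside a normal subgroup of large index. -/
theorem exists_small_class (hb : DegLE G b) (K : Subgroup G) (hK : b ^ 4 < K.index) :
    ∃ g ∉ K, (Subgroup.centralizer ({g} : Set G)).index ≤ b ^ 2 := by
  classical
  by_contra hc
  push Not at hc
  have := Fintype.ofFinite G
  have hsum : Nat.card (ConjClasses G) * Nat.card G =
      ∑ g : G, Nat.card (Subgroup.centralizer ({g} : Set G)) := by
    rw [← card_comm_eq_card_conjClasses_mul_card,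
      Nat.card_congr (Equiv.subtypeProdEquivSigmaSubtype fun a c : G => Commute a c),
      Nat.card_sigma]
    refine Finset.sum_congr rfl fun g _ => Nat.card_congr (Equiv.subtypeEquivRight fun x => ?_)
    rw [Subgroup.mem_centralizer_singleton_iff]
    exact ⟨fun h => h.eq.symm, fun h => h.symm⟩
  have hbound : ∀ g : G, (b ^ 2 + 1) * Nat.card (Subgroup.centralizer ({g} : Set G)) ≤
      Nat.card G + if g ∈ K then b ^ 2 * Nat.card G else 0 := by
    intro g
    split_ifs with hg
    · have := Subgroup.card_le_card_group (Subgroup.centralizer ({g} : Set G))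
      calc (b ^ 2 + 1) * Nat.card (Subgroup.centralizer ({g} : Set G))
          ≤ (b ^ 2 + 1) * Nat.card G := Nat.mul_le_mul_left _ this
        _ = Nat.card G + b ^ 2 * Nat.card G := by ring
    · rw [add_zero, mul_comm,
        ← (Subgroup.centralizer ({g} : Set G)).card_mul_index]
      exact Nat.mul_le_mul_left _ (hc g hg)
  have h1 := Finset.sum_le_sum fun g (_ : g ∈ Finset.univ) => hbound g
  rw [← Finset.mul_sum, ← hsum, Finset.sum_add_distrib, ← Finset.sum_filter, Finset.sum_const,
    Finset.sum_const, smul_eq_mul, smul_eq_mul, Finset.card_univ, ← Nat.card_eq_fintype_card,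
    ← Fintype.card_subtype, ← Nat.card_eq_fintype_card] at h1
  have h2 := card_le_classes_mul hb
  have hG : 0 < Nat.card G := Nat.card_pos
  have h1' : (b ^ 2 + 1) * Nat.card (ConjClasses G) ≤ Nat.card G + b ^ 2 * Nat.card K := by
    refine Nat.le_of_mul_le_mul_right ?_ hG
    refine (le_of_eq (by ring)).trans (h1.trans (le_of_eq ?_))
    show _ + Nat.card K * _ = _
    ring
  have hKG := K.card_mul_index
  have hKpos : 0 < Nat.card K := Nat.card_pos
  have h3 := Nat.mul_le_mul_left (b ^ 2) h1'
  have h4 := Nat.mul_le_mul_left (b ^ 2 + 1) h2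
  have h5 : Nat.card G ≤ b ^ 4 * Nat.card K := by
    have e1 : b ^ 4 = b ^ 2 * b ^ 2 := by ring
    rw [e1]
    nlinarith [h3, h4]
  rw [← hKG, mul_comm (b ^ 4)] at h5
  have := Nat.le_of_mul_le_mul_left h5 hKpos
  omega

/-- The reduction when the derived subgroup of `G ⧸ K` is not abelian. -/
theorem reduction_nonabelian (hb : DegLE G b) (K : Subgroup G) [K.Normal]
    (hK : ¬ commutator G ≤ K)
    (hmin : ∀ L : Subgroup (G ⧸ K), L.Normal → L ≠ ⊥ → commutator (G ⧸ K) ≤ L)
    (hab : ¬ ∀ a ∈ commutator (G ⧸ K), ∀ c ∈ commutator (G ⧸ K), a * c = c * a) :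
    Reduction G b := by
  classical
  have := Fintype.ofFinite G
  set N := commutator (G ⧸ K) with hNdef
  -- the derived subgroup is perfect
  have hNN : ⁅N, N⁆ = N := by
    refine le_antisymm (Subgroup.commutator_le_self N) (hmin _ inferInstance fun h => hab ?_)
    intro a ha c hc
    have h1 := Subgroup.commutator_mem_commutator ha hc
    rw [h, Subgroup.mem_bot, commutatorElement_eq_one_iff_mul_comm] at h1
    exact h1
  have hperf : commutator N = ⊤ := by
    refine Subgroup.map_injective N.subtype_injective ?_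
    rw [Subgroup.map_subtype_commutator, hNN, ← MonoidHom.range_eq_map, N.range_subtype]
  have : Nontrivial N := by
    rw [Subgroup.nontrivial_iff_ne_bot]
    intro h
    apply hab
    intro a ha c hc
    rw [h, Subgroup.mem_bot] at ha hc
    rw [ha, hc]
  have hb5 : 5 ≤ b := by
    obtain ⟨χ, hχ⟩ := exists_deg_ge_five hperf
    exact hχ.trans (degLE_subgroup (degLE_quotient hb K) N χ)
  by_cases hsmall : K.index ≤ b ^ 4
  · exact ⟨K, b / 2, by omega, degLE_normal_half hb K hK, budget_four hb5 hsmall⟩
  obtain ⟨g, hgK, hgi⟩ := exists_small_class hb K (by omega)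
  set H := Subgroup.centralizer ({g} : Set G) with hHdef
  refine ⟨H, b - 1, by omega, fun θ => ?_, budget_one (by omega) hgi⟩
  by_contra hθ
  have := Fintype.ofFinite H
  obtain ⟨ψ, hψ⟩ := exists_irr_over H θ.2
  have hψH := restrict_eq_of_degree_le H ψ θ hψ (by have := hb ψ; omega)
  have hθb : charDegree (θ : H → ℂ) = b := by
    have := hb ψ
    have := degree_le_of_over H ψ θ hψ
    omega
  have hgH : g ∈ H := Subgroup.mem_centralizer_singleton_iff.2 rfl
  have hgZ : (⟨g, hgH⟩ : H) ∈ Subgroup.center H := Subgroup.mem_center_iff.2 fun x =>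
    Subtype.ext (Subgroup.mem_centralizer_singleton_iff.1 x.2)
  have hψg : (ψ : G → ℂ) g ≠ 0 := by
    intro h0
    have h1 := norm_char_of_mem_center θ.2 hgZ
    rw [← congrFun hψH ⟨g, hgH⟩, h0, norm_zero, apply_one_deg, Complex.norm_natCast, hθb] at h1
    exact (show (b : ℝ) ≠ 0 by exact_mod_cast (show b ≠ 0 by omega)) h1.symm
  -- the induced character is scalar at `g`
  have hindc := isCharacter_indFun H (isCharacter_of_isIrr θ.2)
  choose n hn using fun η : IrrCharacter G => classInner_natCast hindc (isCharacter_of_isIrr η.2)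
  have hind : ∀ y : G, indFun H (θ : H → ℂ) y =
      ∑ η : IrrCharacter G, (n η : ℂ) * (η : G → ℂ) y := by
    intro y
    conv_lhs => rw [eq_sum_classInner_smul (isClassFunction_of_isCharacter hindc)]
    simp [hn, Finset.sum_apply]
  have hcons : ∀ η : IrrCharacter G, n η ≠ 0 →
      (η : G → ℂ) g = (ψ : G → ℂ) g ∧ (η : G → ℂ) 1 = (ψ : G → ℂ) 1 := by
    intro η hη
    have h1 : classInner (fun h : H => (η : G → ℂ) h) θ ≠ 0 := by
      intro h0
      apply hη
      have h2 := hn η
      rw [classInner_conj_symm, classInner_indFun_right H _ (isClassFunction_of_isIrr η.2), h0,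
        map_zero] at h2
      exact_mod_cast h2.symm
    have h2 := restrict_eq_of_degree_le H η θ h1 (by have := hb η; omega)
    rw [← hψH] at h2
    exact ⟨congrFun h2 ⟨g, hgH⟩, by simpa using congrFun h2 1⟩
  have hIg : indFun H (θ : H → ℂ) g = (H.index : ℂ) * (ψ : G → ℂ) g := by
    have hsum : ∀ y : G, (∀ η : IrrCharacter G, n η ≠ 0 → (η : G → ℂ) y = (ψ : G → ℂ) y) →
        indFun H (θ : H → ℂ) y = (∑ η, (n η : ℂ)) * (ψ : G → ℂ) y := by
      intro y hy
      rw [hind y, Finset.sum_mul]
      refine Finset.sum_congr rfl fun η _ => ?_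
      by_cases h : n η = 0
      · simp [h]
      · rw [hy η h]
    have hone := hsum 1 fun η h => (hcons η h).2
    rw [indFun_one, ← congrFun hψH 1, Subgroup.coe_one] at hone
    rw [hsum g fun η h => (hcons η h).1, ← mul_right_cancel₀ (apply_one_ne ψ) hone]
  -- so all conjugates of `g` centralise `g`
  have hall : ∀ x : G, x⁻¹ * g * x ∈ H := by
    intro x
    have hterm : ∀ y : G, extendByZero H (θ : H → ℂ) (y⁻¹ * g * y) =
        (if y⁻¹ * g * y ∈ H then 1 else 0 : ℂ) * (ψ : G → ℂ) g := by
      intro y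
      split_ifs with h
      · rw [extendByZero_mem H _ h, ← congrFun hψH ⟨_, h⟩, one_mul]
        have := isClassFunction_of_isIrr ψ.2 g y⁻¹
        rwa [inv_inv] at this
      · rw [extendByZero_not_mem H _ h, zero_mul]
    have h1 : indFun H (θ : H → ℂ) g = (Nat.card H : ℂ)⁻¹ *
        ((Finset.univ.filter fun y : G => y⁻¹ * g * y ∈ H).card : ℂ) * (ψ : G → ℂ) g := by
      simp only [indFun]
      rw [Finset.sum_congr rfl fun y _ => hterm y, ← Finset.sum_mul, Finset.sum_boole, mul_assoc]
    rw [hIg] at h1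
    have h2 := mul_right_cancel₀ hψg h1
    rw [eq_inv_mul_iff_mul_eq₀ (card_ne_zero_complex H), ← Nat.cast_mul, Nat.cast_inj,
      H.card_mul_index] at h2
    have h3 : (Finset.univ.filter fun y : G => y⁻¹ * g * y ∈ H) = Finset.univ :=
      Finset.eq_univ_of_card _ (by rw [← h2, Nat.card_eq_fintype_card])
    have h4 := Finset.mem_univ x
    rw [← h3, Finset.mem_filter] at h4
    exact h4.2
  -- hence the normal closure of its image is abelian
  let L := Subgroup.normalClosure ({QuotientGroup.mk' K g} : Set (G ⧸ K))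
  have hL0 : L ≠ ⊥ := fun h => hgK (by
    have hm : QuotientGroup.mk' K g ∈ L := Subgroup.subset_normalClosure rfl
    rw [h, Subgroup.mem_bot] at hm
    exact (QuotientGroup.eq_one_iff g).1 hm)
  have hNL : N ≤ L := hmin L Subgroup.normalClosure_normal hL0
  have hcomm : ∀ p ∈ Group.conjugatesOfSet ({QuotientGroup.mk' K g} : Set (G ⧸ K)),
      ∀ q ∈ Group.conjugatesOfSet ({QuotientGroup.mk' K g} : Set (G ⧸ K)), p * q = q * p := by
    intro p hp q hq
    obtain ⟨_, rfl, hp'⟩ := Group.mem_conjugatesOfSet_iff.1 hp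
    obtain ⟨_, rfl, hq'⟩ := Group.mem_conjugatesOfSet_iff.1 hq
    obtain ⟨s, rfl⟩ := isConj_iff.1 hp'
    obtain ⟨t, rfl⟩ := isConj_iff.1 hq'
    obtain ⟨s, rfl⟩ := QuotientGroup.mk'_surjective K s
    obtain ⟨t, rfl⟩ := QuotientGroup.mk'_surjective K t
    have h1 := Subgroup.mem_centralizer_singleton_iff.1 (hall (t⁻¹ * s))
    simp only [← map_mul, ← map_inv]
    congr 1
    calc s * g * s⁻¹ * (t * g * t⁻¹)
        = t * (((t⁻¹ * s)⁻¹)⁻¹ * g * (t⁻¹ * s)⁻¹ * g) * t⁻¹ := by group
      _ = t * (g * ((t⁻¹ * s) * g * (t⁻¹ * s)⁻¹)) * t⁻¹ := by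
          have h2 := Subgroup.mem_centralizer_singleton_iff.1 (hall (t⁻¹ * s)⁻¹)
          rw [h2, inv_inv]
      _ = t * g * t⁻¹ * (s * g * s⁻¹) := by group
  exact hab fun a ha c hc => by
    have hLc : IsMulCommutative L := Subgroup.isMulCommutative_closure hcomm
    exact setLike_mul_comm (hNL ha) (hNL hc)

end Cfsg.Agent.Lib.IsaacsPassman
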