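import Cfsg.Agent.Lib.IsaacsPassman.Central
import Cfsg.Agent.Lib.IsaacsPassman.AbelianDerived
import Cfsg.Agent.Lib.IsaacsPassman.NonabelianDerived

/-!
# An abelian subgroup of index bounded by the largest character degree

The theorem of Isaacs and Passman, with the bound `(b!)²`.
-/

set_option autoImplicit false

namespace Cfsg.Agent.Lib.IsaacsPassman

open Cfsg Cfsg.Agent.Lib.Char

universe u

/-- A group all of whose degrees are at most `b` has an abelian subgroup of index at most
`(b!)²`. -/
theorem exists_abelian_index_le : ∀ (b : ℕ) (G : Type u) [Group G] [Finite G], DegLE G b →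
    ∃ A : Subgroup G, (∀ x ∈ A, ∀ y ∈ A, x * y = y * x) ∧ A.index ≤ b.factorial ^ 2 := by
  intro b
  induction b using Nat.strong_induction_on with
  | _ b ih =>
  intro G _ _ hb
  by_cases hcomm : ∀ a c : G, a * c = c * a
  · exact ⟨⊤, fun x _ y _ => hcomm x y, by
      rw [Subgroup.index_top]; exact Nat.one_le_pow _ _ (Nat.factorial_pos b)⟩
  obtain ⟨K, hK⟩ := (Set.toFinite {K : Subgroup G | K.Normal ∧ ¬ commutator G ≤ K}).exists_maximal
    ⟨⊥, inferInstance, fun h => hcomm fun a c => by
      have h1 : a * c * a⁻¹ * c⁻¹ ∈ (⊥ : Subgroup G) := h (by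
        rw [commutator_def]
        exact Subgroup.commutator_mem_commutator (Subgroup.mem_top a) (Subgroup.mem_top c))
      rwa [Subgroup.mem_bot, mul_inv_eq_one, mul_inv_eq_iff_eq_mul] at h1⟩
  have := hK.1.1
  have hπ := QuotientGroup.mk'_surjective K
  have hmin : ∀ L : Subgroup (G ⧸ K), L.Normal → L ≠ ⊥ → commutator (G ⧸ K) ≤ L := by
    intro L hLn hL
    have hle : K ≤ L.comap (QuotientGroup.mk' K) := fun k hk => by
      rw [Subgroup.mem_comap, QuotientGroup.mk'_apply, (QuotientGroup.eq_one_iff k).2 hk]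
      exact one_mem _
    have hc : commutator G ≤ L.comap (QuotientGroup.mk' K) := by
      by_contra hc
      apply hL
      rw [← Subgroup.map_comap_eq_self_of_surjective hπ L, Subgroup.map_eq_bot_iff,
        QuotientGroup.ker_mk']
      exact hK.2 ⟨hLn.comap _, hc⟩ hle
    rw [commutator_def, ← Subgroup.map_top_of_surjective _ hπ, ← Subgroup.map_commutator,
      ← commutator_def, ← Subgroup.map_comap_eq_self_of_surjective hπ L]
    exact Subgroup.map_mono hc
  have hne := quotient_not_comm hK.1.2
  have hred : Reduction G b := by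
    by_cases hab : ∀ a ∈ commutator (G ⧸ K), ∀ c ∈ commutator (G ⧸ K), a * c = c * a
    · by_cases hcl : commutator (G ⧸ K) ≤ Subgroup.center (G ⧸ K)
      · exact reduction_central hb K hne hmin hcl
      · exact reduction_abelian hb K hK.1.2 hne hmin hab hcl
    · exact reduction_nonabelian hb K hK.1.2 hmin hab
  obtain ⟨H, c, hc, hH, hidx⟩ := hred
  obtain ⟨A, hA, hAi⟩ := exists_abelian_of_subgroup H (ih c hc H hH)
  exact ⟨A, hA, hAi.trans hidx⟩

end Cfsg.Agent.Lib.IsaacsPassman
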